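import Cfsg.Agent.H8.Ito

/-! Counting by fibres and orbits. -/

set_option autoImplicit false

namespace Cfsg.Agent.Reg

open Subgroup hiding commutator_def

theorem ncard_eq_sum_fib {α β : Type*} [Finite α] (X : Set α) (f : α → β) :
    X.ncard = ∑ y ∈ ((Set.toFinite X).image f).toFinset, {x | x ∈ X ∧ f x = y}.ncard := by
  classical
  rw [Set.ncard_eq_toFinset_card X, Finset.card_eq_sum_card_image f]
  apply Finset.sum_congr
  · ext; simp
  · intro y _
    rw [← Set.ncard_coe_finset]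
    congr 1
    ext; simp

theorem dvd_ncard_of_fib {α β : Type*} [Finite α] (X : Set α) (f : α → β) (c : ℕ)
    (h : ∀ x ∈ X, c ∣ {y | y ∈ X ∧ f y = f x}.ncard) : c ∣ X.ncard := by
  rw [ncard_eq_sum_fib X f]
  apply Finset.dvd_sum
  intro y hy
  rw [Set.Finite.mem_toFinset] at hy
  obtain ⟨x, hx, rfl⟩ := hy
  exact h x hx

theorem ncard_eq_of_fib {α β : Type*} [Finite α] (X : Set α) (f : α → β) (c : ℕ)
    (h : ∀ x ∈ X, {y | y ∈ X ∧ f y = f x}.ncard = c) : X.ncard = (f '' X).ncard * c := by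
  rw [ncard_eq_sum_fib X f, Finset.sum_congr rfl (g := fun _ => c), Finset.sum_const, smul_eq_mul,
    Set.ncard_eq_toFinset_card _ ((Set.toFinite X).image f)]
  intro y hy
  rw [Set.Finite.mem_toFinset] at hy
  obtain ⟨x, hx, rfl⟩ := hy
  exact h x hx

theorem dvd_ncard_of_act {T α : Type*} [Group T] [MulAction T α] [Finite α] (X : Set α) (c : ℕ)
    (hX : ∀ t : T, ∀ x ∈ X, t • x ∈ X) (h : ∀ x ∈ X, c ∣ (MulAction.stabilizer T x).index) :
    c ∣ X.ncard := by
  apply dvd_ncard_of_fib X (MulAction.orbit T)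
  intro x hx
  have e : {y | y ∈ X ∧ MulAction.orbit T y = MulAction.orbit T x} = MulAction.orbit T x := by
    ext y
    constructor
    · rintro ⟨-, h⟩; rw [← h]; exact MulAction.mem_orbit_self y
    · rintro ⟨t, rfl⟩; exact ⟨hX t x hx, MulAction.orbit_smul t x⟩
  rw [e, ← MulAction.index_stabilizer]; exact h x hx

theorem p_dvd_ncard_of_act {T α : Type*} [Group T] [Finite T] [MulAction T α] [Finite α] {p : ℕ}
    [hp : Fact p.Prime] (hT : IsPGroup p T) (X : Set α)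
    (hX : ∀ t : T, ∀ x ∈ X, t • x ∈ X) (h : ∀ x ∈ X, ∃ t : T, t • x ≠ x) : p ∣ X.ncard := by
  apply dvd_ncard_of_act X p hX
  intro x hx
  obtain ⟨k, hk⟩ := hT.index (MulAction.stabilizer T x)
  rw [hk]
  refine dvd_pow_self p ?_
  rintro rfl
  obtain ⟨t, ht⟩ := h x hx
  have := index_eq_one.1 (hk.trans (pow_zero p))
  exact ht (MulAction.mem_stabilizer_iff.1 (this ▸ mem_top t))

theorem coset_fib {G : Type*} [Group G] (X : Set G) (W : G → Subgroup G)
    (hW : ∀ g ∈ X, ∀ w ∈ W g, g * w ∈ X ∧ W (g * w) = W g) {x : G} (hx : x ∈ X) :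
    {y | y ∈ X ∧ (fun w => y * w) '' (W y) = (fun w => x * w) '' (W x)}.ncard = Nat.card (W x) := by
  have e : {y | y ∈ X ∧ (fun w => y * w) '' (W y) = (fun w => x * w) '' (W x)} =
      (fun w => x * w) '' (W x) := by
    ext y
    constructor
    · rintro ⟨-, h⟩; rw [← h]; exact ⟨1, (W y).one_mem, mul_one y⟩
    · rintro ⟨w, hw, rfl⟩
      refine ⟨(hW x hx w hw).1, ?_⟩
      rw [(hW x hx w hw).2]
      ext v
      constructor
      · rintro ⟨u, hu, rfl⟩; exact ⟨w * u, mul_mem hw hu, (mul_assoc _ _ _).symm⟩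
      · rintro ⟨u, hu, rfl⟩; exact ⟨w⁻¹ * u, mul_mem (inv_mem hw) hu, by simp [mul_assoc]⟩
  rw [e, Set.ncard_image_of_injective _ (mul_right_injective x), ← Nat.card_coe_set_eq]
  rfl

theorem mem_of_pow_pow {G : Type*} [Group G] {M : Subgroup G} {g : G} {a b : ℕ} (h : a.Coprime b)
    (ha : g ^ a ∈ M) (hb : g ^ b ∈ M) : g ∈ M := by
  have e : g = (g ^ a) ^ Nat.gcdA a b * (g ^ b) ^ Nat.gcdB a b := by
    rw [← zpow_natCast, ← zpow_natCast, ← zpow_mul, ← zpow_mul, ← zpow_add, ← Nat.gcd_eq_gcd_ab,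
      h.gcd_eq_one]
    simp
  rw [e]; exact mul_mem (zpow_mem ha _) (zpow_mem hb _)

end Cfsg.Agent.Reg
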