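import Cfsg.Agent.H8.Hopf
import Cfsg.Agent.H3.Kernel
import Cfsg.Agent.H3.Det

/-! Projective representations and covering groups. -/

set_option autoImplicit false

namespace Cfsg.Agent.Hopf

open Subgroup hiding commutator_def
open Function
open scoped commutatorElement

universe u v w

theorem exists_adjust {E Γ X : Type*} [Group E] [Group Γ] [Group X] {τ : E →* Γ} (hτ : Surjective τ)
    (β χ : E →* X) (hχ : ∀ x, χ x ∈ center X) (h : ∀ d ∈ τ.ker, β d = χ d) :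
    ∃ ρ : Γ →* X, ∀ x, ρ (τ x) = β x * (χ x)⁻¹ := by
  let δ : E →* X := MonoidHom.mk' (fun x => β x * (χ x)⁻¹) fun a b => by
    have h1 := mem_center_iff.1 (inv_mem (hχ a))
    rw [map_mul, map_mul, mul_inv_rev, mul_assoc (β a) (χ a)⁻¹, ← h1]
    simp only [mul_assoc]
  refine ⟨τ.liftOfSurjective hτ ⟨δ, fun d hd => ?_⟩, fun x => ?_⟩
  · change β d * (χ d)⁻¹ = 1
    rw [h d hd, mul_inv_cancel]
  · exact τ.liftOfRightInverse_comp_apply _ _ _ x

theorem exists_diff {E X : Type*} [Group E] [Group X] {Z : Subgroup X} (hZ : Z ≤ center X)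
    (β β' : E →* X) (h : ∀ x, β x * (β' x)⁻¹ ∈ Z) : ∃ χ : E →* Z, ∀ x, (χ x : X) = β x * (β' x)⁻¹ := by
  refine ⟨MonoidHom.mk' (fun x => ⟨_, h x⟩) fun a b => Subtype.ext ?_, fun _ => rfl⟩
  change β (a * b) * (β' (a * b))⁻¹ = β a * (β' a)⁻¹ * (β b * (β' b)⁻¹)
  have h1 := mem_center_iff.1 (hZ (h b))
  rw [map_mul, map_mul, mul_inv_rev, mul_assoc (β a) (β' a)⁻¹, h1]
  simp only [mul_assoc]

theorem exists_ext_div {E Z : Type*} [Group E] [CommGroup Z]
    (hZ : ∀ n : ℕ, n ≠ 0 → ∀ z : Z, ∃ y, y ^ n = z) {D : Subgroup E}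
    (hD : D ⊓ _root_.commutator E = ⊥) (f : D →* Z) : ∃ χ : E →* Z, ∀ d : D, χ d = f d := by
  let ι := (Abelianization.of (G := E)).comp D.subtype
  have hι : Injective ι := (injective_iff_map_eq_one _).2 fun x hx => by
    have h1 : (x : E) ∈ D ⊓ _root_.commutator E := ⟨x.2, by
      rw [← Abelianization.ker_of]; exact hx⟩
    rw [hD] at h1
    exact Subtype.ext h1
  let e := MonoidHom.ofInjective hι
  letI : DivisibleBy (Additive Z) ℕ := divisibleByOfSMulRightSurj _ _ fun {n} hn z => hZ n hn z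
  letI : DivisibleBy (Additive Z) ℤ := AddGroup.divisibleByIntOfDivisibleByNat _
  obtain ⟨g, hg⟩ := (Module.Baer.of_divisible (Additive Z)).extension_property_addMonoidHom
    (MonoidHom.toAdditive ι.range.subtype) Subtype.val_injective
    (MonoidHom.toAdditive (f.comp e.symm.toMonoidHom))
  refine ⟨(MonoidHom.toAdditive.symm g).comp Abelianization.of, fun d => ?_⟩
  have := DFunLike.congr_fun hg (Additive.ofMul (e d))
  refine Eq.trans this ?_
  change f (e.symm (e d)) = f d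
  rw [e.symm_apply_apply]

theorem center_GL_root (n m : ℕ) (hm : m ≠ 0) (z : center (GL (Fin n) ℂ)) : ∃ y, y ^ m = z := by
  obtain ⟨z, hz⟩ := z
  have hz' := hz
  rw [Matrix.GeneralLinearGroup.center_eq_range_scalar] at hz'
  obtain ⟨a, rfl⟩ := hz'
  obtain ⟨b, hb⟩ := IsAlgClosed.exists_pow_nat_eq (a : ℂ) (Nat.pos_of_ne_zero hm)
  have hb0 : b ≠ 0 := by
    rintro rfl
    rw [zero_pow hm] at hb
    exact a.ne_zero hb.symm
  refine ⟨⟨Matrix.GeneralLinearGroup.scalar (Fin n) (Units.mk0 b hb0), ?_⟩, Subtype.ext ?_⟩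
  · rw [Matrix.GeneralLinearGroup.center_eq_range_scalar]; exact ⟨_, rfl⟩
  · change _ ^ m = _
    rw [← map_pow]
    congr 1
    ext
    simpa using hb

/-- projective representations lift to covering groups -/
theorem proj_lift {Q : Type*} [Group Q] {A : Type*} [CommGroup A] (hA : HasSchurMultiplier Q A)
    {Γ : Type*} [Group Γ] {σ : Γ →* Q} (hσ : IsStemExtension σ) (e : σ.ker ≃* A) (n : ℕ)
    (γ : Q →* (GL (Fin n) ℂ ⧸ center (GL (Fin n) ℂ))) :
    ∃ ρ : Γ →* GL (Fin n) ℂ, (QuotientGroup.mk' (center (GL (Fin n) ℂ))).comp ρ = γ.comp σ := by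
  have := mult_finite' hA
  have h := fp_surj Q
  obtain ⟨τ, hτ⟩ := exists_lift' (fp Q) hσ.1 hσ.2.1
  have hτs : Surjective τ := surj_of_stem hσ (hτ ▸ Hp_surj h)
  have h2 : ∀ x, σ (τ x) = Hp (fp Q) x := DFunLike.congr_fun hτ
  obtain ⟨β, hβ⟩ := exists_lift (fp Q) (QuotientGroup.mk'_surjective (center (GL (Fin n) ℂ)))
    (QuotientGroup.ker_mk' _).le γ
  have h3 : ∀ x, (β x : GL (Fin n) ℂ ⧸ center (GL (Fin n) ℂ)) = γ (Hp (fp Q) x) := DFunLike.congr_fun hβ
  have hi := cover_inj hA h hσ e hτ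
  have hk : τ.ker ≤ (Hp (fp Q)).ker := fun x hx => by
    rw [MonoidHom.mem_ker, ← h2, MonoidHom.mem_ker.1 hx, map_one]
  have hi' : τ.ker ⊓ _root_.commutator _ = ⊥ :=
    le_bot_iff.1 (hi ▸ le_inf inf_le_left (inf_le_inf_right _ hk))
  let f : τ.ker →* center (GL (Fin n) ℂ) := (β.comp τ.ker.subtype).codRestrict _ fun x => by
    rw [← QuotientGroup.eq_one_iff]
    exact (h3 x).trans (by rw [MonoidHom.mem_ker.1 (hk x.2), map_one])
  letI : CommGroup (center (GL (Fin n) ℂ)) := { (inferInstance : Group (center (GL (Fin n) ℂ))) with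
    mul_comm := fun a b => Subtype.ext (mem_center_iff.1 b.2 a) }
  obtain ⟨χ, hχ⟩ := exists_ext_div (Z := center (GL (Fin n) ℂ)) (center_GL_root n) hi' f
  obtain ⟨ρ, hρ⟩ := exists_adjust hτs β ((center _).subtype.comp χ) (fun x => (χ x).2)
    fun d hd => (congrArg Subtype.val (hχ ⟨d, hd⟩)).symm
  refine ⟨ρ, MonoidHom.ext fun g => ?_⟩
  obtain ⟨x, rfl⟩ := hτs g
  simp only [MonoidHom.comp_apply, hρ, map_mul, map_inv, h2, ← h3]
  have : (QuotientGroup.mk' (center (GL (Fin n) ℂ))) ((center (GL (Fin n) ℂ)).subtype (χ x)) = 1 :=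
    (QuotientGroup.eq_one_iff _).2 (χ x).2
  rw [this, inv_one, mul_one]
  rfl

theorem exists_rep {Γ : Type*} [Group Γ] [Finite Γ] {a : Γ} (ha : a ≠ 1) :
    ∃ (n : ℕ) (ρ : Γ →* GL (Fin n) ℂ), ρ a ≠ 1 ∧ ∀ z ∈ center Γ, ρ z ∈ center (GL (Fin n) ℂ) := by
  obtain ⟨χ, ⟨n, ρ, hρ, rfl⟩, h⟩ : ∃ χ, IsIrrCharacter Γ χ ∧ χ a ≠ χ 1 := by
    by_contra! h
    exact ha (H3.eq_one_of_forall_irr h)
  refine ⟨n, (Matrix.GeneralLinearGroup.toLin.symm.toMonoidHom).comp ρ.asGroupHom, fun h1 => h ?_, fun z hz => ?_⟩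
  · have h2 : ρ.asGroupHom a = 1 := (Matrix.GeneralLinearGroup.toLin.symm.map_eq_one_iff).1 h1
    have h3 : ρ a = 1 := by rw [← Representation.asGroupHom_apply, h2, Units.val_one]
    simp only [Representation.character, h3, map_one]
  · obtain ⟨c, hc⟩ := H3.exists_scalar_of_commute ρ (ρ z) fun g => by
      rw [← Module.End.mul_eq_comp, ← Module.End.mul_eq_comp, ← map_mul, ← map_mul, mem_center_iff.1 hz g]
    rw [mem_center_iff]
    intro g
    apply Matrix.GeneralLinearGroup.toLin.injective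
    rw [map_mul, map_mul]
    change _ * Matrix.GeneralLinearGroup.toLin (Matrix.GeneralLinearGroup.toLin.symm _) =
      Matrix.GeneralLinearGroup.toLin (Matrix.GeneralLinearGroup.toLin.symm _) * _
    rw [MulEquiv.apply_symm_apply]
    apply Units.ext
    rw [Units.val_mul, Units.val_mul, Representation.asGroupHom_apply, hc]
    ext v
    simp

/-- a stem extension lifting all projective representations is a covering group -/
theorem cover_of_lift {Q : Type*} [Group Q] [Finite Q] {Γ : Type*} [Group Γ] {σ : Γ →* Q}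
    (hσ : IsStemExtension σ) (hlift : ∀ (n : ℕ) (γ : Q →* (GL (Fin n) ℂ ⧸ center (GL (Fin n) ℂ))),
      ∃ ρ : Γ →* GL (Fin n) ℂ, (QuotientGroup.mk' (center (GL (Fin n) ℂ))).comp ρ = γ.comp σ)
    {Δ : Type*} [Group Δ] {τ : Δ →* Q} (hτ : IsStemExtension τ) :
    ∃ π : σ.ker →* τ.ker, Surjective π := by
  have h := fp_surj Q
  obtain ⟨β, hβ⟩ := exists_lift' (fp Q) hσ.1 hσ.2.1
  refine surj_of_inj h hσ hβ ?_ hτ
  rw [eq_bot_iff_forall]
  intro m hm
  by_contra hm1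
  obtain ⟨D, hD, h1, h2⟩ := exists_compl (φ := fp Q) le_rfl le_sup_left
  have := normal_of_le hD
  obtain ⟨_, σ₀, hσ₀, h0, -⟩ := exists_cover h h1 h2
  have h3 : (m : HE (fp Q) ⧸ D) ≠ 1 := fun h4 => by
    have h5 : m ∈ D ⊓ HM (fp Q) := ⟨(QuotientGroup.eq_one_iff _).1 h4, hm.2⟩
    rw [h1] at h5
    exact hm1 h5
  obtain ⟨n, ρ₀, hρ₀, hc⟩ := exists_rep h3
  let mk := QuotientGroup.mk' (center (GL (Fin n) ℂ))
  let γ := σ₀.liftOfSurjective hσ₀.1 ⟨mk.comp ρ₀, fun z hz => (QuotientGroup.eq_one_iff _).2 (hc z (hσ₀.2.1 hz))⟩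
  have hγ : ∀ x, γ (σ₀ x) = mk (ρ₀ x) := fun x => σ₀.liftOfRightInverse_comp_apply _ _ _ x
  obtain ⟨ρ, hρ⟩ := hlift n γ
  have h6 := lift_eq (σ := mk) (QuotientGroup.ker_mk' _).le (τ := ρ.comp β)
    (τ' := ρ₀.comp (QuotientGroup.mk' D)) (MonoidHom.ext fun x => by
      have k1 := DFunLike.congr_fun hρ (β x)
      have k2 := DFunLike.congr_fun hβ x
      have k3 := DFunLike.congr_fun h0 x
      simp only [MonoidHom.comp_apply] at k1 k2 k3 ⊢
      rw [← hγ, k3, ← k2, ← k1]) hm.2.2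
  apply hρ₀
  have h7 : β m = 1 := hm.1
  simp only [MonoidHom.comp_apply, h7, map_one] at h6
  exact h6.symm

/-- transfer to a subgroup containing a central element of the commutator subgroup -/
theorem pow_index_mem {Γ : Type*} [Group Γ] {H : Subgroup Γ} [H.FiniteIndex] {a : Γ} (ha : a ∈ center Γ)
    (ha' : a ∈ _root_.commutator Γ) : a ^ H.index ∈ ⁅H, H⁆ := by
  have key : ∀ (k : ℕ) (g₀ : Γ), g₀⁻¹ * a ^ k * g₀ ∈ H → g₀⁻¹ * a ^ k * g₀ = a ^ k := fun k g _ => by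
    rw [mul_assoc, ← mem_center_iff.1 (pow_mem ha k) g, inv_mul_cancel_left]
  have h1 := MonoidHom.transfer_eq_pow (Abelianization.of (G := H)) a key
  have h2 : MonoidHom.transfer (Abelianization.of (G := H)) a = 1 :=
    Abelianization.commutator_subset_ker _ ha'
  rw [h2, eq_comm, ← MonoidHom.mem_ker, Abelianization.ker_of] at h1
  rw [← map_subtype_commutator]
  exact ⟨_, h1, rfl⟩

/-- order of a central element of prime power order in the commutator subgroup -/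
theorem sq_le_index {Γ : Type*} [Group Γ] [Finite Γ] {Z : Subgroup Γ} (hZ : Z ≤ center Γ) {a : Γ}
    (ha : a ∈ Z) (ha' : a ∈ _root_.commutator Γ) {p e : ℕ} (hp : p.Prime) (ho : orderOf a = p ^ e) :
    (p ^ e) ^ 2 ≤ Z.index := by
  rcases e with _ | e
  · exact Nat.pos_of_ne_zero (index_ne_zero_of_finite (H := Z))
  have h1 : a ^ p ^ e ≠ 1 := fun h => by
    have := orderOf_dvd_of_pow_eq_one h
    rw [ho, Nat.pow_dvd_pow_iff_le_right hp.one_lt] at this
    omega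
  obtain ⟨χ, hχ, h⟩ : ∃ χ, IsIrrCharacter Γ χ ∧ χ (a ^ p ^ e) ≠ χ 1 := by
    by_contra! h
    exact h1 (H3.eq_one_of_forall_irr h)
  have hZ' := hZ.trans hχ.center_le_charCenter
  obtain ⟨lam, hl⟩ := H3.exists_linear_of_le_charCenter hχ.apply_one_ne_zero hZ'
  have h2 := hχ.isCharacter.detChar_of_scalar (hl ⟨a, ha⟩)
  obtain ⟨δ, hδ⟩ := hχ.isCharacter.exists_det
  have h3 : δ a = 1 := Abelianization.commutator_subset_ker _ ha'
  rw [hδ] at h2
  simp only [h3, Units.val_one] at h2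
  have h4 : lam ⟨a, ha⟩ ^ charDegree χ = 1 := Units.ext (by simpa using h2.symm)
  have h5 : orderOf (lam ⟨a, ha⟩) = p ^ (e + 1) := by
    have := Fact.mk hp
    apply orderOf_eq_prime_pow
    · intro h6
      apply h
      have h7 := hl (⟨a, ha⟩ ^ p ^ e) 1
      rw [map_pow, h6] at h7
      simpa using h7
    · rw [← map_pow, ← ho, show (⟨a, ha⟩ : Z) ^ orderOf a = 1 from Subtype.ext (pow_orderOf_eq_one a), map_one]
  have h6 : p ^ (e + 1) ≤ charDegree χ :=
    Nat.le_of_dvd hχ.charDegree_pos (h5 ▸ orderOf_dvd_of_pow_eq_one h4)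
  exact (Nat.pow_le_pow_left h6 2).trans (hχ.degree_sq_le_index hZ')

end Cfsg.Agent.Hopf
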