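import Cfsg.Agent.H8.Hopf

/-! Bilinear central extensions and the multiplier of a product. -/

set_option autoImplicit false

namespace Cfsg.Agent.Hopf

open Subgroup hiding commutator_def
open Function
open scoped commutatorElement

universe u v w

/-- central extension defined by a bilinear cocycle -/
@[ext] structure BE {G : Type u} {T : Type v} [Group G] [CommGroup T] (β : G →* G →* T) where
  g : G
  t : T

namespace BE
variable {G : Type u} {T : Type v} [Group G] [CommGroup T] {β : G →* G →* T}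

instance : Mul (BE β) := ⟨fun x y => ⟨x.g * y.g, x.t * y.t * β x.g y.g⟩⟩
instance : One (BE β) := ⟨⟨1, 1⟩⟩
instance : Inv (BE β) := ⟨fun x => ⟨x.g⁻¹, x.t⁻¹ * β x.g x.g⟩⟩

@[simp] theorem mul_g (x y : BE β) : (x * y).g = x.g * y.g := rfl
@[simp] theorem mul_t (x y : BE β) : (x * y).t = x.t * y.t * β x.g y.g := rfl
@[simp] theorem one_g : (1 : BE β).g = 1 := rfl
@[simp] theorem one_t : (1 : BE β).t = 1 := rfl
@[simp] theorem inv_g (x : BE β) : (x⁻¹).g = x.g⁻¹ := rfl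
@[simp] theorem inv_t (x : BE β) : (x⁻¹).t = x.t⁻¹ * β x.g x.g := rfl

instance : Group (BE β) := Group.ofLeftAxioms
  (fun x y z => by
    ext
    · simp [mul_assoc]
    · simp only [mul_t, mul_g, map_mul, MonoidHom.mul_apply]
      generalize β x.g y.g = a, β x.g z.g = b, β y.g z.g = c
      simp only [mul_assoc, mul_comm, mul_left_comm])
  (fun x => by ext <;> simp)
  (fun x => by
    ext
    · simp
    · simp only [mul_t, inv_t, inv_g, map_inv, MonoidHom.inv_apply, one_t]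
      rw [mul_right_comm x.t⁻¹, inv_mul_cancel, one_mul, mul_inv_cancel])

instance [Finite G] [Finite T] : Finite (BE β) :=
  Finite.of_injective (fun x => (x.g, x.t)) fun _ _ h => BE.ext (congrArg Prod.fst h) (congrArg Prod.snd h)

variable (β) in
/-- projection -/
def pr : BE β →* G := MonoidHom.mk' BE.g fun _ _ => rfl

variable (β) in
/-- inclusion of the kernel -/
def inc : T →* BE β := MonoidHom.mk' (fun t => ⟨1, t⟩) fun _ _ => by ext <;> simp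

@[simp] theorem pr_apply (x : BE β) : pr β x = x.g := rfl
@[simp] theorem inc_g (t : T) : (inc β t).g = 1 := rfl
@[simp] theorem inc_t (t : T) : (inc β t).t = t := rfl

theorem inc_mem {a b : G} (h : a * b = b * a) : inc β (β a b * (β b a)⁻¹) ∈ _root_.commutator (BE β) := by
  have : inc β (β a b * (β b a)⁻¹) = ⁅(⟨a, 1⟩ : BE β), ⟨b, 1⟩⁆ := by
    rw [commutatorElement_def, mul_assoc, ← mul_inv_rev, eq_mul_inv_iff_mul_eq]
    ext <;> simp [h]
  rw [this]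
  exact commutator_mem_commutator (mem_top _) (mem_top _)

end BE

theorem comm_mul_left {Γ : Type*} [Group Γ] {a b c : Γ} (h : ⁅b, c⁆ ∈ center Γ) :
    ⁅a * b, c⁆ = ⁅a, c⁆ * ⁅b, c⁆ := by
  rw [mem_center_iff.1 h, show ⁅a * b, c⁆ = a * ⁅b, c⁆ * a⁻¹ * ⁅a, c⁆ by group, mem_center_iff.1 h a]
  simp

theorem comm_mul_right {Γ : Type*} [Group Γ] {a b c : Γ} (h : ⁅a, c⁆ ∈ center Γ) :
    ⁅a, b * c⁆ = ⁅a, b⁆ * ⁅a, c⁆ := by
  rw [show ⁅a, b * c⁆ = ⁅a, b⁆ * (b * ⁅a, c⁆ * b⁻¹) by group, mem_center_iff.1 h b]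
  simp

/-- the tensor product of the commutator quotients -/
abbrev TT (Q₁ : Type u) (Q₂ : Type v) [Group Q₁] [Group Q₂] :=
  Multiplicative (TensorProduct ℤ (Additive (Abelianization Q₁)) (Additive (Abelianization Q₂)))

section
variable {Q₁ : Type u} {Q₂ : Type v} [Group Q₁] [Group Q₂]

variable (Q₁ Q₂) in
/-- the universal bilinear map -/
def tm : Q₁ →* Q₂ →* TT Q₁ Q₂ :=
  MonoidHom.mk' (fun x => MonoidHom.mk' (fun y => Multiplicative.ofAdd
    (Additive.ofMul (Abelianization.of x) ⊗ₜ[ℤ] Additive.ofMul (Abelianization.of y))) fun a b => by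
      rw [map_mul, ofMul_mul, TensorProduct.tmul_add, ofAdd_add]) fun a b => by
    ext y
    simp only [MonoidHom.mk'_apply, MonoidHom.mul_apply]
    rw [map_mul, ofMul_mul, TensorProduct.add_tmul, ofAdd_add]

theorem tm_gen {X : Subgroup (TT Q₁ Q₂)} (h : ∀ x y, tm Q₁ Q₂ x y ∈ X) (t : TT Q₁ Q₂) : t ∈ X := by
  change Multiplicative.ofAdd t.toAdd ∈ X
  induction t.toAdd using TensorProduct.induction_on with
  | zero => exact one_mem _
  | tmul x y =>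
    obtain ⟨a, ha⟩ := QuotientGroup.mk'_surjective _ x.toMul
    obtain ⟨b, hb⟩ := QuotientGroup.mk'_surjective _ y.toMul
    have h1 : x = Additive.ofMul (Abelianization.of a) := congrArg Additive.ofMul ha.symm
    have h2 : y = Additive.ofMul (Abelianization.of b) := congrArg Additive.ofMul hb.symm
    rw [h1, h2]; exact h a b
  | add x y hx hy => rw [ofAdd_add]; exact mul_mem hx hy

theorem tm_lift {K : Type*} [CommGroup K] (c : Q₁ →* Q₂ →* K) :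
    ∃ f : TT Q₁ Q₂ →* K, ∀ x y, f (tm Q₁ Q₂ x y) = c x y := by
  let c1 : Abelianization Q₁ →* Abelianization Q₂ →* K :=
    Abelianization.lift (Abelianization.lift c.flip).flip
  let c2 : Additive (Abelianization Q₁) →+ Additive (Abelianization Q₂) →+ Additive K :=
    AddMonoidHom.mk' (fun x => MonoidHom.toAdditive (c1 x.toMul)) fun a b => by
      rw [toMul_add, map_mul]; rfl
  refine ⟨MonoidHom.toAdditiveRight.symm (TensorProduct.liftAddHom (R := ℤ) c2 fun r m n => ?_), fun x y => rfl⟩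
  rw [map_zsmul, map_zsmul]; rfl

instance [Finite Q₁] [Finite Q₂] : Finite (TT Q₁ Q₂) := by
  have : Group.FG (TT Q₁ Q₂) := by
    rw [Group.fg_iff]
    refine ⟨Set.range fun p : Q₁ × Q₂ => tm Q₁ Q₂ p.1 p.2, eq_top_iff.2 fun t _ =>
      tm_gen (fun x y => Subgroup.subset_closure (Set.mem_range_self (f := fun p : Q₁ × Q₂ => tm Q₁ Q₂ p.1 p.2) (x, y))) t, Set.finite_range _⟩
  refine CommGroup.finite_of_fg_isMulTorsion _ fun t => ?_
  refine tm_gen (X := CommGroup.torsion _) (fun x y => ?_) t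
  exact MonoidHom.isOfFinOrder _ (isOfFinOrder_of_finite y)

theorem prod_upper {A B : Type*} [CommGroup A] [CommGroup B] (hA : HasSchurMultiplier Q₁ A)
    (hB : HasSchurMultiplier Q₂ B) {Γ : Type*} [Group Γ] {σ : Γ →* Q₁ × Q₂} (hσ : IsStemExtension σ) :
    ∃ π : A × B × TT Q₁ Q₂ →* σ.ker, Surjective π := by
  have hc := hσ.2.1
  letI : CommGroup σ.ker := { (inferInstance : Group σ.ker) with
    mul_comm := fun a b => Subtype.ext (mem_center_iff.1 (hc b.2) a) }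
  obtain ⟨s, hs⟩ := hσ.1.hasRightInverse
  replace hs : ∀ q, σ (s q) = q := hs
  obtain ⟨G₁, hG₁⟩ : ∃ G₁, G₁ = ((MonoidHom.snd Q₁ Q₂).comp σ).ker := ⟨_, rfl⟩
  obtain ⟨G₂, hG₂⟩ : ∃ G₂, G₂ = ((MonoidHom.fst Q₁ Q₂).comp σ).ker := ⟨_, rfl⟩
  have m1 : ∀ x, x ∈ G₁ ↔ (σ x).2 = 1 := fun x => by rw [hG₁]; rfl
  have m2 : ∀ x, x ∈ G₂ ↔ (σ x).1 = 1 := fun x => by rw [hG₂]; rfl
  have : G₁.Normal := hG₁ ▸ inferInstance
  have : G₂.Normal := hG₂ ▸ inferInstance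
  let σ₁ : G₁ →* Q₁ := ((MonoidHom.fst Q₁ Q₂).comp σ).comp G₁.subtype
  let σ₂ : G₂ →* Q₂ := ((MonoidHom.snd Q₁ Q₂).comp σ).comp G₂.subtype
  have k1 : ∀ x : G₁, x ∈ σ₁.ker → (x : Γ) ∈ σ.ker := fun x hx => Prod.ext hx ((m1 _).1 x.2)
  have k2 : ∀ x : G₂, x ∈ σ₂.ker → (x : Γ) ∈ σ.ker := fun x hx => Prod.ext ((m2 _).1 x.2) hx
  obtain ⟨π₁, h₁⟩ := mult_surj_inf hA (σ := σ₁) (fun q => ⟨⟨s (q, 1), by rw [m1, hs]⟩, congrArg Prod.fst (hs _)⟩)
    fun z hz => mem_center_iff.2 fun g => Subtype.ext (mem_center_iff.1 (hc (k1 z hz)) g)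
  obtain ⟨π₂, h₂⟩ := mult_surj_inf hB (σ := σ₂) (fun q => ⟨⟨s (1, q), by rw [m2, hs]⟩, congrArg Prod.snd (hs _)⟩)
    fun z hz => mem_center_iff.2 fun g => Subtype.ext (mem_center_iff.1 (hc (k2 z hz)) g)
  have hk : ∀ x y, ⁅s (x, 1), s (1, y)⁆ ∈ σ.ker := fun x y => by
    rw [MonoidHom.mem_ker, map_commutatorElement, hs, hs, commutatorElement_eq_one_iff_mul_comm]; simp
  let c : Q₁ →* Q₂ →* σ.ker := MonoidHom.mk' (fun x => MonoidHom.mk' (fun y => ⟨_, hk x y⟩) fun a b =>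
    Subtype.ext (by
      change _ = ⁅_, _⁆ * ⁅_, _⁆
      rw [← comm_mul_right (hc (hk x b))]
      exact comm_congr hc rfl (by simp [hs]))) fun a b => by
    ext y
    change _ = ⁅_, _⁆ * ⁅_, _⁆
    rw [← comm_mul_left (hc (hk b y))]
    exact comm_congr hc (by simp [hs]) rfl
  obtain ⟨π₃, h₃⟩ := tm_lift c
  let i₁ : A →* σ.ker := (G₁.subtype.comp ((Subgroup.subtype _).comp π₁)).codRestrict _ fun a => k1 _ (π₁ a).2.1
  let i₂ : B →* σ.ker := (G₂.subtype.comp ((Subgroup.subtype _).comp π₂)).codRestrict _ fun a => k2 _ (π₂ a).2.1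
  refine ⟨i₁.coprod (i₂.coprod π₃), fun k => ?_⟩
  obtain ⟨I, hI⟩ : ∃ I, I = (σ.ker.subtype.comp π₃).range := ⟨_, rfl⟩
  have hIk : I ≤ σ.ker := by rw [hI]; rintro _ ⟨t, rfl⟩; exact (π₃ t).2
  have : I.Normal := ⟨fun n hn g => by rw [mem_center_iff.1 (hc (hIk hn)) g]; simpa using hn⟩
  have hN : _root_.commutator Γ ≤ ⁅G₁, G₁⁆ ⊔ (⁅G₂, G₂⁆ ⊔ I) := by
    obtain ⟨N, hN⟩ : ∃ N, N = ⁅G₁, G₁⁆ ⊔ (⁅G₂, G₂⁆ ⊔ I) := ⟨_, rfl⟩
    have : N.Normal := hN ▸ inferInstance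
    rw [← hN, commutator_def, commutator_le]
    have key : ∀ a b : Γ, ⁅a, b⁆ ∈ N ↔ Commute (a : Γ ⧸ N) b := fun a b => by
      rw [← commutatorElement_eq_one_iff_commute, ← QuotientGroup.eq_one_iff]; rfl
    have dec : ∀ a : Γ, ∃ x ∈ G₁, ∃ y ∈ G₂, a = x * y := fun a =>
      ⟨s ((σ a).1, 1), by rw [m1, hs], (s ((σ a).1, 1))⁻¹ * a, by simp [m2, hs], by simp⟩
    have c12 : ∀ x ∈ G₁, ∀ y ∈ G₂, Commute (x : Γ ⧸ N) y := fun x hx y hy => by
      rw [← key, hN, comm_congr hc (a' := s ((σ x).1, 1)) (b' := s (1, (σ y).2))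
        (by rw [hs]; exact Prod.ext rfl ((m1 _).1 hx)) (by rw [hs]; exact Prod.ext ((m2 _).1 hy) rfl)]
      refine mem_sup_right (mem_sup_right (hI ▸ ⟨tm _ _ (σ x).1 (σ y).2, ?_⟩))
      rw [MonoidHom.comp_apply, h₃]; rfl
    intro a _ b _
    obtain ⟨x, hx, y, hy, rfl⟩ := dec a
    obtain ⟨x', hx', y', hy', rfl⟩ := dec b
    rw [key, QuotientGroup.mk_mul, QuotientGroup.mk_mul]
    refine Commute.mul_left (Commute.mul_right ?_ (c12 _ hx _ hy')) (Commute.mul_right (c12 _ hx' _ hy).symm ?_)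
    · rw [← key, hN]; exact mem_sup_left (commutator_mem_commutator hx hx')
    · rw [← key, hN]; exact mem_sup_right (mem_sup_left (commutator_mem_commutator hy hy'))
  have h4 := hN (hσ.2.2 k.2)
  rw [← SetLike.mem_coe, normal_mul] at h4
  obtain ⟨x, hx, w, hw, h4⟩ := h4
  rw [SetLike.mem_coe, ← SetLike.mem_coe, normal_mul] at hw
  obtain ⟨y, hy, z, hz, rfl⟩ := hw
  rw [SetLike.mem_coe, ← map_subtype_commutator] at hx hy
  obtain ⟨x, hx, rfl⟩ := hx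
  obtain ⟨y, hy, rfl⟩ := hy
  have h5 : σ x * σ y = 1 := by
    have := congrArg σ h4
    simp only [map_mul, MonoidHom.mem_ker.1 (hIk hz), MonoidHom.mem_ker.1 k.2, mul_one] at this
    exact this
  have hx1 : x ∈ σ₁.ker := by
    have := congrArg Prod.fst h5
    rwa [Prod.fst_mul, (m2 _).1 y.2, mul_one] at this
  have hy1 : y ∈ σ₂.ker := by
    have := congrArg Prod.snd h5
    rwa [Prod.snd_mul, (m1 _).1 x.2, one_mul] at this
  obtain ⟨a, ha⟩ := h₁ ⟨x, hx1, hx⟩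
  obtain ⟨b, hb⟩ := h₂ ⟨y, hy1, hy⟩
  rw [hI] at hz
  obtain ⟨t, rfl⟩ := hz
  refine ⟨(a, b, t), Subtype.ext ?_⟩
  rw [← h4]
  change ((π₁ a : G₁) : Γ) * (((π₂ b : G₂) : Γ) * _) = _
  rw [ha, hb]; rfl

theorem mult_prod {A B : Type*} [CommGroup A] [CommGroup B] (hA : HasSchurMultiplier Q₁ A)
    (hB : HasSchurMultiplier Q₂ B) : HasSchurMultiplier (Q₁ × Q₂) (A × B × TT Q₁ Q₂) := by
  have := mult_finite' hA
  have := mult_finite' hB
  obtain ⟨Γ₁, _, _, σ₁, h₁, ⟨e₁⟩⟩ := hA.1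
  obtain ⟨Γ₂, _, _, σ₂, h₂, ⟨e₂⟩⟩ := hB.1
  let β : Γ₁ × Γ₂ →* Γ₁ × Γ₂ →* TT Q₁ Q₂ :=
    (((tm Q₁ Q₂).comp (σ₁.comp (MonoidHom.fst _ _))).flip.comp (σ₂.comp (MonoidHom.snd _ _))).flip
  have hβ : ∀ x y, β x y = tm Q₁ Q₂ (σ₁ x.1) (σ₂ y.2) := fun _ _ => rfl
  let σ : BE β →* Q₁ × Q₂ := (σ₁.prodMap σ₂).comp (BE.pr β)
  have hk : ∀ x, x ∈ σ.ker ↔ x.g.1 ∈ σ₁.ker ∧ x.g.2 ∈ σ₂.ker := fun x => Prod.ext_iff
  have hb1 : ∀ x ∈ σ.ker, ∀ y, β x.g y = 1 := fun x hx y => by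
    rw [hβ, MonoidHom.mem_ker.1 ((hk x).1 hx).1, map_one, MonoidHom.one_apply]
  have hb2 : ∀ x ∈ σ.ker, ∀ y, β y x.g = 1 := fun x hx y => by
    rw [hβ, MonoidHom.mem_ker.1 ((hk x).1 hx).2, map_one]
  refine mult_mk (σ := σ) ⟨fun q => ?_, fun x hx => mem_center_iff.2 fun y => ?_, fun x hx => ?_⟩ ?_
    fun Γ _ _ τ hτ => prod_upper hA hB hτ
  · obtain ⟨a, ha⟩ := h₁.1 q.1
    obtain ⟨b, hb⟩ := h₂.1 q.2
    exact ⟨⟨(a, b), 1⟩, Prod.ext ha hb⟩
  · ext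
    · exact mem_center_iff.1 (h₁.2.1 ((hk x).1 hx).1) _
    · exact mem_center_iff.1 (h₂.2.1 ((hk x).1 hx).2) _
    · rw [BE.mul_t, BE.mul_t, hb1 x hx, hb2 x hx, mul_comm y.t]
  · let j₁ : Γ₁ →* BE β := MonoidHom.mk' (fun a => ⟨(a, 1), 1⟩) fun a b => by ext <;> simp [hβ]
    let j₂ : Γ₂ →* BE β := MonoidHom.mk' (fun a => ⟨(1, a), 1⟩) fun a b => by ext <;> simp [hβ]
    have h3 : x = j₁ x.g.1 * j₂ x.g.2 * BE.inc β x.t := by
      ext <;> simp [j₁, j₂, hβ, MonoidHom.mem_ker.1 ((hk x).1 hx).2]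
    have hm : ∀ {X : Type _} [Group X] (j : X →* BE β), (_root_.commutator X).map j ≤ _root_.commutator _ :=
      fun j => by rw [commutator_def, map_commutator]; exact commutator_mono le_top le_top
    have hm' : (_root_.commutator Γ₂).map j₂ ≤ _root_.commutator _ := by
      rw [commutator_def, map_commutator]; exact commutator_mono le_top le_top
    rw [h3]
    refine mul_mem (mul_mem (hm j₁ ⟨_, h₁.2.2 ((hk x).1 hx).1, rfl⟩) (hm' ⟨_, h₂.2.2 ((hk x).1 hx).2, rfl⟩))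
      (tm_gen (X := (_root_.commutator _).comap (BE.inc β)) (fun a b => ?_) x.t)
    obtain ⟨a, rfl⟩ := h₁.1 a
    obtain ⟨b, rfl⟩ := h₂.1 b
    have := BE.inc_mem (β := β) (a := (a, 1)) (b := (1, b)) (by simp)
    simpa [hβ] using this
  · refine MulEquiv.trans ?_ (e₁.prodCongr (e₂.prodCongr (MulEquiv.refl _)))
    exact { toFun := fun x => (⟨x.1.g.1, ((hk x).1 x.2).1⟩, ⟨x.1.g.2, ((hk x).1 x.2).2⟩, x.1.t)
            invFun := fun y => ⟨⟨(y.1, y.2.1), y.2.2⟩, (hk _).2 ⟨y.1.2, y.2.1.2⟩⟩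
            left_inv := fun _ => rfl
            right_inv := fun _ => rfl
            map_mul' := fun x y => Prod.ext rfl (Prod.ext rfl (by
              change x.1.t * y.1.t * _ = _
              rw [hb1 x x.2, mul_one]; rfl)) }

end

theorem mult_cyclic {G : Type*} [Group G] [Finite G] [IsCyclic G] : HasCyclicSchurMultiplier G 1 := by
  rw [triv_iff]
  intro Γ _ _ σ hσ
  have h : ∀ a b : Γ, a * b = b * a := commutative_of_cyclic_center_quotient σ hσ.2.1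
  refine le_bot_iff.1 (hσ.2.2.trans ?_)
  rw [commutator_def, commutator_le]
  intro a _ b _
  exact commutatorElement_eq_one_iff_mul_comm.2 (h a b)

end Cfsg.Agent.Hopf
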