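import Cfsg.Agent.H8.Ico5

set_option autoImplicit false
set_option maxRecDepth 100000

namespace Cfsg.Agent.Ico
open Cfsg.Spor Quaternion Cfsg.Agent.H6

theorem exists_word (g : twoJ2) : ∃ w, wp σ w = g := by
  let H : Subgroup twoJ2 :=
    { carrier := Set.range (wp σ)
      mul_mem' := by rintro _ _ ⟨u, rfl⟩ ⟨w, rfl⟩; exact ⟨_, wp_append ..⟩
      one_mem' := ⟨[], rfl⟩
      inv_mem' := by
        rintro _ ⟨w, rfl⟩
        refine ⟨w.reverse, ?_⟩
        induction w with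
        | nil => simp
        | cons k w ih => simp [ih, σ_inv] }
  exact (σ_ind (H := H) fun k => ⟨[k], by simp⟩).ge (Subgroup.mem_top g)

theorem exists_lin (g : twoJ2) : ∃ F : (Fin 3 → ℍ[ℝ]) →ₗ[ℍ[ℝ]] (Fin 3 → ℍ[ℝ]),
    (∀ x : icoLeech, (g.1 x : Fin 3 → ℍ[ℝ]) = F x) ∧ ∀ x, qip (F x) (F x) = qip x x := by
  obtain ⟨w, rfl⟩ := exists_word g
  induction w with
  | nil => exact ⟨.id, fun _ => rfl, fun _ => rfl⟩
  | cons k w ih =>
    obtain ⟨F, a, b⟩ := ih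
    have l : ∀ r (c : ℍ[ℝ]) x, qrefl r (c • x) = c • qrefl r x := fun r c x => by
      simp only [qrefl_eq, qip_smul, smul_sub, ← mul_smul_comm, mul_smul]
    let R : (Fin 3 → ℍ[ℝ]) →ₗ[ℍ[ℝ]] (Fin 3 → ℍ[ℝ]) := ⟨⟨qrefl (rv (cd (aI k))), fun x y => by
      simpa using qrefl_lin _ x y (-1)⟩, l _⟩
    exact ⟨R ∘ₗ F, fun x => by rw [wp_cons, Subgroup.coe_mul, Equiv.Perm.mul_apply, σ, (ρ_spec (aI_lt k)).2, a]; rfl,
      fun x => (qrefl_adj ..).trans (by rw [← b x]; exact congrArg _ (qrefl_qrefl (bas_spec (cBas _ (aI_lt k))).2 _))⟩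

theorem rv0 : rv (cd 0) = ![2, 0, 0] := by rw [← d2, ← d0]; rfl
theorem rv35 : rv (cd 35) = ![0, 2, 0] := by rw [← d2, ← d0]; rfl
theorem rv80 : rv (cd 80) = ![0, 0, 2] := by rw [← d2, ← d0]; rfl

/-- minus one -/
noncomputable def ng : twoJ2 := ρ 0 * ρ 35 * ρ 80

theorem ng_spec (x : icoLeech) : (ng.1 x : Fin 3 → ℍ[ℝ]) = -(x : Fin 3 → ℍ[ℝ]) := by
  rw [ng, Subgroup.coe_mul, Subgroup.coe_mul, Equiv.Perm.mul_apply, Equiv.Perm.mul_apply, (ρ_spec (by decide)).2,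
    (ρ_spec (by decide)).2, (ρ_spec (by decide)).2, rv0, rv35, rv80]
  have h : ∀ y : ℍ[ℝ], y - (2⁻¹ : ℝ) • (y * 2 * 2) = -y := fun y => by
    rw [mul_two, mul_two, ← two_smul ℝ (y + y), smul_smul]; norm_num
  funext t
  fin_cases t <;> simp [qrefl, qip, Fin.sum_univ_three, h]

theorem ng_mem : ng ∈ Subgroup.center twoJ2 := Subgroup.mem_center_iff.2 fun g => by
  obtain ⟨F, a, -⟩ := exists_lin g
  refine Subtype.ext (Equiv.ext fun x => Subtype.ext ?_)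
  simp only [Subgroup.coe_mul, Equiv.Perm.mul_apply, a, ng_spec, map_neg]

theorem two_ne : (2 : ℍ[ℝ]) ≠ 0 := fun h => two_ne_zero (show (2 : ℝ) = 0 from congrArg QuaternionAlgebra.re h)

theorem ng_ne : ng ≠ 1 := fun h => by
  have := congrFun (ng_spec ⟨_, (bas_spec (cBas 0 (by decide))).1⟩) 0
  rw [h] at this
  change rv (cd 0) 0 = -rv (cd 0) 0 at this
  rw [rv0, eq_neg_iff_add_eq_zero, ← two_mul] at this
  exact mul_ne_zero two_ne two_ne this

theorem prop_of {r s : Fin 3 → ℍ[ℝ]} (h : qrefl r s = -s) : s = ((1 / 4 : ℝ) • qip s r) • r := by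
  rw [qrefl_eq, sub_eq_iff_eq_add, eq_neg_add_iff_add_eq, ← two_smul ℝ s] at h
  refine smul_right_injective _ (two_ne_zero (α := ℝ)) (h.trans ?_)
  simp only [smul_assoc, smul_smul]
  norm_num

theorem center_eq {z : twoJ2} (hz : z ∈ Subgroup.center twoJ2) : z = 1 ∨ z = ng := by
  obtain ⟨F, a, b⟩ := exists_lin z
  have k : ∀ i < 315, ∃ l : ℍ[ℝ], F (rv (cd i)) = l • rv (cd i) := fun i hi => by
    obtain ⟨m, n⟩ := bas_spec (cBas i hi)
    have := congrArg (fun g : twoJ2 => (g.1 ⟨_, m⟩ : Fin 3 → ℍ[ℝ])) (Subgroup.mem_center_iff.1 hz (ρ i))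
    simp only [Subgroup.coe_mul, Equiv.Perm.mul_apply, a, (ρ_spec hi).2 _, qrefl_self n, map_neg] at this
    exact ⟨_, prop_of this⟩
  obtain ⟨l0, h0⟩ := k 0 (by decide)
  obtain ⟨l1, h1⟩ := k 35 (by decide)
  obtain ⟨l2, h2⟩ := k 80 (by decide)
  rw [rv0] at h0
  rw [rv35] at h1
  rw [rv80] at h2
  have e : ∀ x l : ℍ[ℝ], x / 2 * (l * 2) = x * l := fun x l => by
    rw [mul_two, ← two_mul, ← mul_assoc, div_mul_cancel₀ _ two_ne]
  have f : ∀ v, F v = ![v 0 * l0, v 1 * l1, v 2 * l2] := fun v => by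
    have : v = (v 0 / 2) • ![2, 0, 0] + (v 1 / 2) • ![0, 2, 0] + (v 2 / 2) • ![0, 0, 2] := by
      funext t; fin_cases t <;> simp [two_ne]
    rw [this, map_add, map_add, map_smul, map_smul, map_smul, h0, h1, h2]
    funext t; fin_cases t <;> simp [e, two_ne]
  have g : ∀ i < 315, (cd i).1 = 2290649226 → rv (cd i) 1 * l1 = l0 * rv (cd i) 1 ∧ rv (cd i) 2 * l2 = l0 * rv (cd i) 2 :=
    fun i hi h => by
    obtain ⟨l, hl⟩ := k i hi
    rw [f] at hl
    have := congrFun hl 0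
    simp only [rv, h, d1, Matrix.cons_val_zero, one_mul, Pi.smul_apply, smul_eq_mul, mul_one] at this
    exact this ▸ ⟨congrFun hl 1, congrFun hl 2⟩
  obtain ⟨g1, g2⟩ := g 2 (by decide) rfl
  obtain ⟨g3, -⟩ := g 32 (by decide) rfl
  obtain ⟨g4, -⟩ := g 34 (by decide) rfl
  rw [show rv (cd 2) 1 = 1 from d1, one_mul, mul_one] at g1
  rw [g1, show rv (cd 32) 1 = hv qi from rfl] at g3
  rw [g1, show rv (cd 34) 1 = hv ⟨⟨0, 0⟩, ⟨0, 0⟩, ⟨2, 0⟩, ⟨0, 0⟩⟩ from rfl] at g4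
  have n := b ![1, 0, 0]
  rw [f, qip_self, qip_self] at n
  obtain ⟨c, rfl⟩ : ∃ c : ℝ, l0 = c := ⟨l0.re, by
    have p1 := congrArg QuaternionAlgebra.imJ g3
    have p2 := congrArg QuaternionAlgebra.imK g3
    have p3 := congrArg QuaternionAlgebra.imK g4
    simp [hv, qi, et, -smul_right_inj] at p1 p2 p3
    ext <;> simp <;> linarith⟩
  rw [coe_commutes, mul_right_inj' (a := rv (cd 2) 2) fun h => absurd (hv_inj (h.trans hv_q0.symm)) (by decide +kernel)] at g2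
  replace n : c = 1 ∨ c = -1 := mul_self_eq_one_iff.1 (by simpa [normSq_def', sq] using coe_injective n)
  refine n.imp (fun h => ?_) fun h => ?_ <;> refine Subtype.ext (Equiv.ext fun x => Subtype.ext ?_) <;>
    simp only [a, ng_spec, f, g1, g2, h] <;> funext t <;> fin_cases t <;> simp

theorem card_center : Nat.card (Subgroup.center twoJ2) = 2 :=
  (Nat.card_eq_two_iff' 1).2 ⟨⟨ng, ng_mem⟩, fun h => ng_ne (congrArg Subtype.val h),
    fun z h => Subtype.ext ((center_eq z.2).resolve_left fun e => h (Subtype.ext e))⟩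

theorem cardJ2 : Nat.card J2 = 604800 := (Nat.card_congr exists_iso.choose.toEquiv).symm.trans Suz.cardJ

theorem card_twoJ2 : Nat.card twoJ2 = 1209600 := by
  rw [Subgroup.card_eq_card_quotient_mul_card_subgroup (Subgroup.center twoJ2), card_center, cardJ2]

end Cfsg.Agent.Ico
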